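import Cfsg.Agent.H87.CY.Wit
import Cfsg.Agent.H251.CYA.Syl
import Cfsg.Agent.H960.CY.Lucas

/-!
# S4829, alternating groups of degree `n ≥ 7`, `n ≠ 2 p - 1` (helper87)
-/

set_option autoImplicit false
set_option linter.unusedSectionVars false

namespace Cfsg.Agent.H87.CY

open Cfsg Cfsg.Agent.Characters.Core MulAction Equiv Cfsg.Agent.H464.PermIrr Cfsg.Agent.H770.CY
open scoped Pointwise

universe u

section

variable {X : Type u} [Group X] [Fintype X] {n : ℕ} (e : X ≃* alternatingGroup (Fin n))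

/-- the image of a Sylow subgroup -/
def im {p : ℕ} (Q : Sylow p X) : Subgroup (Perm (Fin n)) := Q.1.map ((alternatingGroup (Fin n)).subtype.comp e.toMonoidHom)

theorem im_comm {p : ℕ} {A : Subgroup (MulAut X)} {φ : A →* Perm (Fin n)}
    (hφ : ∀ (a : A) (x : X), (e ((a : MulAut X) x) : Perm (Fin n)) = φ a * (e x : Perm (Fin n)) * (φ a)⁻¹)
    {a : A} {Q : Sylow p X} (hQ : ∀ x ∈ Q, (a : MulAut X) x = x) : ∀ q ∈ im e Q, φ a * q = q * φ a := by
  rintro _ ⟨x, hx, rfl⟩
  have h1 := hφ a x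
  rw [hQ x hx] at h1
  change φ a * (e x : Perm (Fin n)) = (e x : Perm (Fin n)) * φ a
  rw [eq_mul_inv_iff_mul_eq] at h1
  exact h1.symm

theorem im_max {p : ℕ} [Fact p.Prime] (hp2 : p ≠ 2) (Q : Sylow p X) : IsPGroup p (im e Q) ∧
    ∀ c : Perm (Fin n), (∃ m : ℕ, c ^ p ^ m = 1) → (∀ q ∈ im e Q, c * q = q * c) → c ∈ im e Q := by
  let Q' : Sylow p (alternatingGroup (Fin n)) := Q.comapOfInjective e.symm.toMonoidHom e.symm.injective (by
    intro x _
    exact ⟨e x, e.symm_apply_apply x⟩)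
  have h1 := Cfsg.Agent.H251.CYA.syl_max (n := n) hp2 Q'
  have h2 : Q'.1.map (alternatingGroup (Fin n)).subtype = im e Q := by
    rw [im, ← Subgroup.map_map]
    congr 1
    change Q.1.comap e.symm.toMonoidHom = Q.1.map e.toMonoidHom
    exact (Subgroup.map_equiv_eq_comap_symm e Q.1).symm
  rw [h2] at h1
  exact h1

end

section Main

variable {X : Type u} [Group X] [Fintype X] {n : ℕ} (e : X ≃* alternatingGroup (Fin n)) {A : Subgroup (MulAut X)}
  (hA : ∀ s : X, MulAut.conj s ∈ A) (hn : 7 ≤ n) {p : ℕ} [hp : Fact p.Prime] {M : Ideal AlgInt} (hM : IsPModular p M)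

include hA hn hM e

/-- `π_k - 1`, `p ∣ C(n, k)` -/
theorem wit_one {k : ℕ} (hk : 2 * k ≤ n) (hd : p ∣ n.choose k) : ∃ Ψ : A → ℂ, WitA p M X A hA Ψ := by
  obtain ⟨φ, hφ1, hφ2⟩ := exists_phi e hA hn
  let iA : MulAction A (Fin n) := MulAction.compHom (Fin n) φ
  let iX : MulAction X (Fin n) := MulAction.compHom (Fin n) ((alternatingGroup (Fin n)).subtype.comp e.toMonoidHom)
  have h5 : 5 ≤ Fintype.card (Fin n) := by
    rw [Fintype.card_fin]
    omega
  have hXA : ∀ σ ∈ alternatingGroup (Fin n), ∃ g : X, ∀ i : Fin n, g • i = σ i := by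
    intro σ hσ
    refine ⟨e.symm ⟨σ, hσ⟩, fun i => ?_⟩
    change (e (e.symm ⟨σ, hσ⟩) : Perm (Fin n)) i = σ i
    rw [MulEquiv.apply_symm_apply]
  have hAA : ∀ σ ∈ alternatingGroup (Fin n), ∃ g : A, ∀ i : Fin n, g • i = σ i := by
    intro σ hσ
    refine ⟨⟨MulAut.conj (e.symm ⟨σ, hσ⟩), hA _⟩, fun i => ?_⟩
    change φ ⟨MulAut.conj (e.symm ⟨σ, hσ⟩), hA _⟩ i = σ i
    rw [hφ1, MulEquiv.apply_symm_apply]
  have hkc : 2 * k ≤ Fintype.card (Fin n) := by rwa [Fintype.card_fin]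
  have hres : res hA (P A (Fin n) k - P A (Fin n) 0) = P X (Fin n) k - P X (Fin n) 0 := by
    funext s
    change P (Perm (Fin n)) (Fin n) k (φ ⟨MulAut.conj s, hA s⟩) - P (Perm (Fin n)) (Fin n) 0 (φ ⟨MulAut.conj s, hA s⟩) =
      P (Perm (Fin n)) (Fin n) k (e s : Perm (Fin n)) - P (Perm (Fin n)) (Fin n) 0 (e s : Perm (Fin n))
    rw [hφ1]
  have hone : (P A (Fin n) k - P A (Fin n) 0) 1 = ((n.choose k : ℕ) : ℂ) - (1 : ℕ) := by
    rw [Pi.sub_apply, P_zero, P, pc_one, Set.powersetCard.card, Nat.card_eq_fintype_card, Fintype.card_fin, Nat.cast_one]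
  have hpos : 1 ≤ n.choose k := Nat.choose_pos (by omega)
  refine ⟨P A (Fin n) k - P A (Fin n) 0, ?_, ?_, ?_, ?_, ?_⟩
  · rw [P_sub]
    refine isCharacter_sum _ fun j hj => ?_
    have hj' := Finset.mem_range.1 hj
    exact isIrr_isCharacter (irr_two A h5 hAA (by omega))
  · exact cyc_sub p (cyc_P p k) (cyc_P p 0)
  · refine ⟨n.choose k - 1, ?_, fun h => ?_⟩
    · rw [hone, Nat.cast_sub hpos]
    · have h1 : p ∣ n.choose k - (n.choose k - 1) := Nat.dvd_sub hd h
      have h2 : n.choose k - (n.choose k - 1) = 1 := by omega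
      rw [h2] at h1
      exact hp.out.one_lt.ne' (Nat.dvd_one.1 h1)
  · intro θ
    rw [hres]
    have h1 := inner_sub X h5 hXA hkc θ.2
    rcases h1 with h1 | ⟨h1, h2, j, h3⟩
    · exact Or.inl h1
    · refine Or.inr ⟨h1, h2, ?_⟩
      rw [h3]
      exact cyc_sub p (cyc_P p _) (cyc_P p _)
  · rintro a - ⟨Q, hQ⟩
    have hcomm := im_comm e hφ2 hQ
    have hpg : IsPGroup p (im e Q) := Q.2.map _
    have h1 : Nat.card (fixedBy (Set.powersetCard (Fin n) k) (φ a)) ≡ n.choose k [MOD p] := by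
      apply count (im e Q) hpg (φ a) hcomm
      intro Y hY
      exfalso
      -- `Q` fixes `Y`, so the index of the stabiliser is prime to `p`
      have h2 : Q.1 ≤ stabilizer X Y := by
        intro q hq
        rw [mem_stabilizer_iff]
        exact hY _ ⟨q, hq, rfl⟩
      have h3 : (stabilizer X Y).index = n.choose k := by
        have h4 : orbit X Y = Set.univ := by
          rw [Set.eq_univ_iff_forall]
          intro Z
          obtain ⟨g, hg, -⟩ := exists_smul X h5 hXA (s := (Y : Finset (Fin n))) (s' := (Z : Finset (Fin n))) (t := ∅)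
            (t' := ∅) (by rw [Set.powersetCard.card_eq, Set.powersetCard.card_eq]) rfl (by
              rw [Finset.inter_empty, Finset.inter_empty])
          exact ⟨g, Subtype.ext hg⟩
        rw [MulAction.index_stabilizer, h4, Set.ncard_univ, Set.powersetCard.card, Nat.card_eq_fintype_card,
          Fintype.card_fin]
      have h5' : (stabilizer X Y).index ∣ Q.1.index := Subgroup.index_dvd_of_le h2
      rw [h3] at h5'
      exact Q.not_dvd_index (hd.trans h5')
    have h2 : (P A (Fin n) k - P A (Fin n) 0) a = (Nat.card (fixedBy (Set.powersetCard (Fin n) k) (φ a)) : ℂ) - (1 : ℕ) := by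
      rw [Pi.sub_apply, P_zero, Nat.cast_one]
      rfl
    rw [h2, hone]
    exact mem_local hM h1 (Nat.ModEq.refl 1)

/-- `π_p - π_{p-1}`, `n ≡ -1` modulo `p` -/
theorem wit_two (hp2 : p ≠ 2) (h1 : n % p = p - 1) (h2 : 2 * p ≤ n)
    (hd : ¬ (p : ℤ) ∣ (n.choose p : ℤ) - (n.choose (p - 1) : ℤ)) : ∃ Ψ : A → ℂ, WitA p M X A hA Ψ := by
  obtain ⟨φ, hφ1, hφ2⟩ := exists_phi e hA hn
  let iA : MulAction A (Fin n) := MulAction.compHom (Fin n) φ
  let iX : MulAction X (Fin n) := MulAction.compHom (Fin n) ((alternatingGroup (Fin n)).subtype.comp e.toMonoidHom)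
  have h5 : 5 ≤ Fintype.card (Fin n) := by
    rw [Fintype.card_fin]
    omega
  have hXA : ∀ σ ∈ alternatingGroup (Fin n), ∃ g : X, ∀ i : Fin n, g • i = σ i := by
    intro σ hσ
    refine ⟨e.symm ⟨σ, hσ⟩, fun i => ?_⟩
    change (e (e.symm ⟨σ, hσ⟩) : Perm (Fin n)) i = σ i
    rw [MulEquiv.apply_symm_apply]
  have hAA : ∀ σ ∈ alternatingGroup (Fin n), ∃ g : A, ∀ i : Fin n, g • i = σ i := by
    intro σ hσ
    refine ⟨⟨MulAut.conj (e.symm ⟨σ, hσ⟩), hA _⟩, fun i => ?_⟩
    change φ ⟨MulAut.conj (e.symm ⟨σ, hσ⟩), hA _⟩ i = σ i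
    rw [hφ1, MulEquiv.apply_symm_apply]
  have hp1 := hp.out.one_lt
  obtain ⟨l, rfl⟩ : ∃ l, p = l + 1 := ⟨p - 1, by omega⟩
  rw [Nat.add_sub_cancel] at h1 hd
  have hkc : 2 * (l + 1) ≤ Fintype.card (Fin n) := by rwa [Fintype.card_fin]
  have hlt : n.choose l < n.choose (l + 1) := choose_lt h2
  have hres : res hA (P A (Fin n) (l + 1) - P A (Fin n) l) = P X (Fin n) (l + 1) - P X (Fin n) l := by
    funext s
    change P (Perm (Fin n)) (Fin n) (l + 1) (φ ⟨MulAut.conj s, hA s⟩) -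
      P (Perm (Fin n)) (Fin n) l (φ ⟨MulAut.conj s, hA s⟩) =
      P (Perm (Fin n)) (Fin n) (l + 1) (e s : Perm (Fin n)) - P (Perm (Fin n)) (Fin n) l (e s : Perm (Fin n))
    rw [hφ1]
  have hone : (P A (Fin n) (l + 1) - P A (Fin n) l) 1 = ((n.choose (l + 1) : ℕ) : ℂ) - (n.choose l : ℕ) := by
    rw [Pi.sub_apply, P, P, pc_one, pc_one, Set.powersetCard.card, Set.powersetCard.card, Nat.card_eq_fintype_card,
      Fintype.card_fin]
  have hirr := irr_two X h5 hXA hkc
  refine ⟨P A (Fin n) (l + 1) - P A (Fin n) l, ?_, ?_, ?_, ?_, ?_⟩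
  · exact isIrr_isCharacter (irr_two A h5 hAA hkc)
  · exact cyc_sub _ (cyc_P _ _) (cyc_P _ _)
  · refine ⟨n.choose (l + 1) - n.choose l, ?_, fun h => hd ?_⟩
    · rw [hone, Nat.cast_sub hlt.le]
    · rw [← Nat.cast_sub hlt.le]
      exact_mod_cast h
  · intro θ
    rw [hres]
    by_cases h3 : P X (Fin n) (l + 1) - P X (Fin n) l = θ
    · right
      refine ⟨?_, ?_, ?_⟩
      · rw [h3]
        exact classInner_irr_self θ.2
      · intro h4
        have h6 := inner_two_one X h5 hXA hkc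
        rw [h3, h4] at h6
        have h7 := classInner_irr_self θ.2
        rw [h4, h6] at h7
        exact zero_ne_one h7
      · rw [← h3]
        exact cyc_sub _ (cyc_P _ _) (cyc_P _ _)
    · left
      exact classInner_irr_ne hirr θ.2 h3
  · rintro a - ⟨Q, hQ⟩
    have hcomm := im_comm e hφ2 hQ
    obtain ⟨hpg, hmax⟩ := im_max e hp2 Q
    have key : ∀ k, (k = l + 1 ∨ k = l) → Nat.card (fixedBy (Set.powersetCard (Fin n) k) (φ a)) ≡ n.choose k [MOD l + 1] := by
      intro k hk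
      apply count (im e Q) hpg (φ a) hcomm
      intro Y hY
      have h6 := Cfsg.Agent.H251.CYA.syl_inv (p := l + 1) hp2 (by rw [Nat.add_sub_cancel]; exact h1) (im e Q) hpg hmax
        (φ a) hcomm (Y := (Y : Finset (Fin n))) (by
          rw [Set.powersetCard.card_eq, Nat.add_sub_cancel]
          exact hk) (by
          intro q hq i hi
          have h7 : q • (Y : Finset (Fin n)) = Y := congrArg Subtype.val (hY q hq)
          rw [← h7]
          exact Finset.smul_mem_smul_finset hi)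
      apply Subtype.ext
      change (φ a) • (Y : Finset (Fin n)) = (Y : Finset (Fin n))
      refine Finset.eq_of_subset_of_card_le ?_ (by rw [Finset.card_smul_finset])
      intro y hy
      obtain ⟨x, hx, rfl⟩ := Finset.mem_smul_finset.1 hy
      exact h6 x hx
    have h6 : (P A (Fin n) (l + 1) - P A (Fin n) l) a =
        (Nat.card (fixedBy (Set.powersetCard (Fin n) (l + 1)) (φ a)) : ℂ) -
          (Nat.card (fixedBy (Set.powersetCard (Fin n) l) (φ a)) : ℂ) := rfl
    rw [h6, hone]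
    exact mem_local hM (key _ (Or.inl rfl)) (key _ (Or.inr rfl))

/-- **all alternating groups of degree `n ≥ 7`, `n ≠ 2 p - 1`** -/
theorem wit (hp2 : p ≠ 2) (hpn : p ≤ n) (hne : n + 1 ≠ 2 * p) : ∃ Ψ : A → ℂ, WitA p M X A hA Ψ := by
  rcases Cfsg.Agent.H960.CY.cases hp.out hpn with ⟨k, -, hk, hd⟩ | ⟨a, t, ha1, hap, ht, he⟩
  · exact wit_one e hA hn hM hk hd
  · have h1 : ¬ (t = 1 ∧ a = 2) := by
      rintro ⟨rfl, rfl⟩
      rw [pow_one] at he
      exact hne he
    have h2 : ¬ (t = 1 ∧ a = 1) := by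
      rintro ⟨rfl, rfl⟩
      rw [pow_one] at he
      omega
    exact wit_two e hA hn hM hp2 (Cfsg.Agent.H960.CY.div_mod hp.out ha1 ht he).1
      (Cfsg.Agent.H960.CY.two_mul_le hp.out ha1 ht he hp2 h1 h2)
      (Cfsg.Agent.H960.CY.not_dvd_sub hp.out ha1 ht he hap hp2 h1 h2)

end Main

/-- **the row** -/
theorem rowA_alt {p : ℕ} (hp : p.Prime) (hp2 : p ≠ 2) {X : Type u} [Group X] [Fintype X] {n : ℕ} (hn : 7 ≤ n)
    (e : X ≃* alternatingGroup (Fin n)) (hpX : p ∣ Nat.card X) (hne : n + 1 ≠ 2 * p) : RowA p X := by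
  have : Fact p.Prime := ⟨hp⟩
  intro A hA M hM
  refine wit e hA.1 hn hM hp2 ?_ hne
  rw [Nat.card_congr e.toEquiv] at hpX
  have h1 : Nat.card (alternatingGroup (Fin n)) ∣ Nat.card (Perm (Fin n)) := Subgroup.card_subgroup_dvd_card _
  rw [Nat.card_eq_fintype_card (α := Perm (Fin n)), Fintype.card_perm, Fintype.card_fin] at h1
  exact (hp.dvd_factorial).1 (hpX.trans h1)

end Cfsg.Agent.H87.CY
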