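import Cfsg.Agent.H464.PermIrr

/-!
# S4829, alternating groups: the permutation characters on `k`-subsets (helper87)

`G` acts on `Fin n` and induces at least the alternating group.
-/

set_option autoImplicit false
set_option linter.unusedSectionVars false

namespace Cfsg.Agent.H87.CY

open Cfsg Cfsg.Agent.Characters.Core MulAction Equiv Cfsg.Agent.H464.PermIrr
open scoped Pointwise

section Perm

variable {Ω : Type*} [Fintype Ω] [DecidableEq Ω]

theorem exists_perm {s t s' t' : Finset Ω} (hs : s.card = s'.card) (ht : t.card = t'.card)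
    (hst : (s ∩ t).card = (s' ∩ t').card) : ∃ σ : Perm Ω, ∀ x, (σ x ∈ s' ↔ x ∈ s) ∧ (σ x ∈ t' ↔ x ∈ t) := by
  classical
  let c : Finset Ω → Finset Ω → Ω → Bool × Bool := fun s t x => (decide (x ∈ s), decide (x ∈ t))
  have key : ∀ b, Nonempty ({x // c s t x = b} ≃ {x // c s' t' x = b}) := by
    intro b
    refine ⟨Fintype.equivOfCardEq ?_⟩
    rw [Fintype.card_subtype, Fintype.card_subtype]
    have e1 : ∀ s t : Finset Ω, (Finset.univ.filter fun x => c s t x = (true, true)) = s ∩ t := by
      intro s t; ext x; simp [c]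
    have e2 : ∀ s t : Finset Ω, (Finset.univ.filter fun x => c s t x = (true, false)) = s \ t := by
      intro s t; ext x; simp [c]
    have e3 : ∀ s t : Finset Ω, (Finset.univ.filter fun x => c s t x = (false, true)) = t \ s := by
      intro s t; ext x; simp [c, and_comm]
    have e4 : ∀ s t : Finset Ω, (Finset.univ.filter fun x => c s t x = (false, false)) = (s ∪ t)ᶜ := by
      intro s t; ext x; simp [c]
    have f1 := Finset.card_sdiff_add_card_inter s t
    have f1' := Finset.card_sdiff_add_card_inter s' t'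
    have f2 := Finset.card_sdiff_add_card_inter t s
    have f2' := Finset.card_sdiff_add_card_inter t' s'
    have f3 := Finset.card_union_add_card_inter s t
    have f3' := Finset.card_union_add_card_inter s' t'
    have f4 := Finset.card_compl_add_card (s ∪ t)
    have f4' := Finset.card_compl_add_card (s' ∪ t')
    rw [Finset.inter_comm] at f2 f2'
    rcases b with ⟨_ | _, _ | _⟩
    · rw [e4, e4]; omega
    · rw [e3, e3]; omega
    · rw [e2, e2]; omega
    · rw [e1, e1]; omega
  refine ⟨Equiv.ofFiberEquiv (f := c s t) (g := c s' t') fun b => (key b).some, fun x => ?_⟩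
  have h1 : c s' t' (Equiv.ofFiberEquiv (f := c s t) (g := c s' t') (fun b => (key b).some) x) = c s t x :=
    Equiv.ofFiberEquiv_map _ x
  simp only [c, Prod.mk.injEq, decide_eq_decide] at h1
  exact h1

/-- the same with an even permutation -/
theorem exists_even_perm (h5 : 5 ≤ Fintype.card Ω) {s t s' t' : Finset Ω} (hs : s.card = s'.card)
    (ht : t.card = t'.card) (hst : (s ∩ t).card = (s' ∩ t').card) :
    ∃ σ ∈ alternatingGroup Ω, ∀ x, (σ x ∈ s' ↔ x ∈ s) ∧ (σ x ∈ t' ↔ x ∈ t) := by
  classical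
  obtain ⟨σ, hσ⟩ := exists_perm hs ht hst
  rcases Int.units_eq_one_or (Perm.sign σ) with h1 | h1
  · exact ⟨σ, Perm.mem_alternatingGroup.2 h1, hσ⟩
  let c : Ω → Bool × Bool := fun x => (decide (x ∈ s), decide (x ∈ t))
  obtain ⟨a, b, hab, hc⟩ := Fintype.exists_ne_map_eq_of_card_lt c (by
    rw [Fintype.card_prod, Fintype.card_bool]; omega)
  simp only [c, Prod.mk.injEq, decide_eq_decide] at hc
  refine ⟨σ * swap a b, ?_, fun x => ?_⟩
  · rw [Perm.mem_alternatingGroup, map_mul, h1, Perm.sign_swap hab]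
    rfl
  · rw [Perm.mul_apply, (hσ _).1, (hσ _).2]
    by_cases hxa : x = a
    · rw [hxa, swap_apply_left]
      exact ⟨hc.1.symm, hc.2.symm⟩
    by_cases hxb : x = b
    · rw [hxb, swap_apply_right]
      exact hc
    · rw [swap_apply_of_ne_of_ne hxa hxb]
      exact ⟨Iff.rfl, Iff.rfl⟩

end Perm

section Orb

variable (G : Type*) [Group G] {Ω : Type*} [MulAction G Ω] [Fintype Ω] [DecidableEq Ω]
  (h5 : 5 ≤ Fintype.card Ω) (hA : ∀ σ ∈ alternatingGroup Ω, ∃ g : G, ∀ i : Ω, g • i = σ i)

include h5 hA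

theorem exists_smul {s t s' t' : Finset Ω} (hs : s.card = s'.card) (ht : t.card = t'.card)
    (hst : (s ∩ t).card = (s' ∩ t').card) : ∃ g : G, g • s = s' ∧ g • t = t' := by
  obtain ⟨σ, hσA, hσ⟩ := exists_even_perm h5 hs ht hst
  obtain ⟨g, hg⟩ := hA σ hσA
  refine ⟨g, ?_, ?_⟩
  · refine Finset.eq_of_subset_of_card_le ?_ (by rw [Finset.card_smul_finset, hs])
    intro y hy
    obtain ⟨x, hx, rfl⟩ := Finset.mem_smul_finset.1 hy
    rw [hg x]
    exact (hσ x).1.2 hx
  · refine Finset.eq_of_subset_of_card_le ?_ (by rw [Finset.card_smul_finset, ht])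
    intro y hy
    obtain ⟨x, hx, rfl⟩ := Finset.mem_smul_finset.1 hy
    rw [hg x]
    exact (hσ x).2.2 hx

theorem orb {j k : ℕ} (hjk : j + k ≤ Fintype.card Ω) :
    Nat.card (orbitRel.Quotient G (Set.powersetCard Ω j × Set.powersetCard Ω k)) = min j k + 1 := by
  have hlt : ∀ z : Set.powersetCard Ω j × Set.powersetCard Ω k,
      ((z.1 : Finset Ω) ∩ (z.2 : Finset Ω)).card < min j k + 1 := by
    intro z
    have h1 := Finset.card_le_card (Finset.inter_subset_left (s₁ := (z.1 : Finset Ω)) (s₂ := (z.2 : Finset Ω)))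
    have h2 := Finset.card_le_card (Finset.inter_subset_right (s₁ := (z.1 : Finset Ω)) (s₂ := (z.2 : Finset Ω)))
    rw [Set.powersetCard.card_eq] at h1 h2
    omega
  refine card_orbits G (fun z => ⟨((z.1 : Finset Ω) ∩ (z.2 : Finset Ω)).card, hlt z⟩) ?_ ?_ ?_
  · rintro g ⟨s, t⟩
    apply Fin.ext
    change (((g • s : Set.powersetCard Ω j) : Finset Ω) ∩ ((g • t : Set.powersetCard Ω k) : Finset Ω)).card =
      ((s : Finset Ω) ∩ (t : Finset Ω)).card
    rw [Set.powersetCard.coe_smul, Set.powersetCard.coe_smul, ← Finset.smul_finset_inter, Finset.card_smul_finset]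
  · rintro ⟨i, hi⟩
    have hi' : i ≤ j ∧ i ≤ k := by omega
    have hN : j + k ≤ (Finset.univ : Finset Ω).card := by
      rw [Finset.card_univ]
      omega
    obtain ⟨s, -, hs⟩ := Finset.exists_subset_card_eq (s := (Finset.univ : Finset Ω)) (n := j) (by omega)
    obtain ⟨a, ha, ha'⟩ := Finset.exists_subset_card_eq (s := s) (n := i) (by omega)
    obtain ⟨b, hb, hb'⟩ := Finset.exists_subset_card_eq (s := sᶜ) (n := k - i) (by
      rw [Finset.card_compl, ← Finset.card_univ]; omega)
    have hab : Disjoint a b := by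
      rw [Finset.disjoint_left]
      intro x hx hx'
      exact (Finset.mem_compl.1 (hb hx')) (ha hx)
    refine ⟨(⟨s, hs⟩, ⟨a ∪ b, ?_⟩), Fin.ext ?_⟩
    · rw [Set.powersetCard.mem_iff, Finset.card_union_of_disjoint hab]
      omega
    · change (s ∩ (a ∪ b)).card = i
      have : s ∩ (a ∪ b) = a := by
        ext x
        simp only [Finset.mem_inter, Finset.mem_union]
        constructor
        · rintro ⟨h1, h2 | h2⟩
          · exact h2
          · exact absurd h1 (Finset.mem_compl.1 (hb h2))
        · intro h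
          exact ⟨ha h, Or.inl h⟩
      rw [this, ha']
  · rintro ⟨⟨s, hs⟩, ⟨t, ht⟩⟩ ⟨⟨s', hs'⟩, ⟨t', ht'⟩⟩ h
    replace h : (s ∩ t).card = (s' ∩ t').card := congrArg Fin.val h
    have hs2 : s.card = j := hs
    have ht2 : t.card = k := ht
    have hs2' : s'.card = j := hs'
    have ht2' : t'.card = k := ht'
    obtain ⟨g, h1, h2⟩ := exists_smul G h5 hA (s := s) (t := t) (s' := s') (t' := t') (by omega) (by omega) h
    exact ⟨g, Prod.ext (Subtype.ext h1) (Subtype.ext h2)⟩

variable [Finite G]

/-- the permutation character on `k`-subsets -/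
noncomputable def P (G : Type*) [Group G] (Ω : Type*) [MulAction G Ω] [DecidableEq Ω] (k : ℕ) : G → ℂ :=
  pc G (Set.powersetCard Ω k)

omit h5 hA in
theorem choose_lt {n j : ℕ} (h : 2 * (j + 1) ≤ n) : n.choose j < n.choose (j + 1) := by
  have h1 : n.choose (j + 1) * (j + 1) = n.choose j * (n - j) := Nat.choose_succ_right_eq n j
  have h2 : 0 < n.choose j := Nat.choose_pos (by omega)
  have h3 : n.choose j * (j + 2) ≤ n.choose j * (n - j) := Nat.mul_le_mul_left _ (by omega)
  have h4 : n.choose j * (j + 2) = n.choose j * (j + 1) + n.choose j := by ring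
  have h5 : n.choose j * (j + 1) < n.choose (j + 1) * (j + 1) := by omega
  exact Nat.lt_of_mul_lt_mul_right h5

/-- The constituent `(n - j - 1, j + 1)`. -/
theorem irr_two {j : ℕ} (hj : 2 * (j + 1) ≤ Fintype.card Ω) : IsIrrCharacter G (P G Ω (j + 1) - P G Ω j) := by
  refine irr_sub G _ _ ?_ (orb G h5 hA (by omega)) (orb G h5 hA (by omega))
    (orb G h5 hA (by omega)) (by omega)
  rw [Set.powersetCard.card, Set.powersetCard.card, Nat.card_eq_fintype_card]
  exact choose_lt hj

theorem inner_P [Fintype G] {j k : ℕ} (hjk : j + k ≤ Fintype.card Ω) :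
    classInner (P G Ω j) (P G Ω k) = ((min j k + 1 : ℕ) : ℂ) := by
  rw [P, P, classInner_pc, orb G h5 hA hjk]

theorem inner_two [Fintype G] {i j : ℕ} (hij : i < j) (hj : 2 * (j + 1) ≤ Fintype.card Ω) :
    classInner (P G Ω (j + 1) - P G Ω j) (P G Ω (i + 1) - P G Ω i) = 0 := by
  simp only [classInner_sub_left, classInner_sub_right]
  rw [inner_P G h5 hA (by omega), inner_P G h5 hA (by omega), inner_P G h5 hA (by omega),
    inner_P G h5 hA (by omega), min_eq_right (by omega), min_eq_right (by omega), min_eq_right (by omega),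
    min_eq_right (by omega)]
  push_cast
  ring

omit h5 hA [Finite G] in
theorem P_zero : P G Ω 0 = fun _ => 1 := by
  funext g
  rw [P, pc]
  have h1 : Nat.card (fixedBy (Set.powersetCard Ω 0) g) = 1 := by
    rw [Nat.card_eq_one_iff_unique]
    constructor
    · constructor
      rintro ⟨⟨a, ha⟩, ha'⟩ ⟨⟨b, hb⟩, hb'⟩
      have ha2 : a.card = 0 := ha
      have hb2 : b.card = 0 := hb
      apply Subtype.ext
      apply Subtype.ext
      change a = b
      rw [Finset.card_eq_zero.1 ha2, Finset.card_eq_zero.1 hb2]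
    · refine ⟨⟨⟨∅, Finset.card_empty⟩, ?_⟩⟩
      rw [mem_fixedBy]
      apply Subtype.ext
      rw [Set.powersetCard.coe_smul]
      exact Finset.smul_finset_empty g
  rw [h1, Nat.cast_one]

theorem inner_two_one [Fintype G] {j : ℕ} (hj : 2 * (j + 1) ≤ Fintype.card Ω) :
    classInner (P G Ω (j + 1) - P G Ω j) (fun _ => 1) = 0 := by
  rw [← P_zero G (Ω := Ω)]
  simp only [classInner_sub_left]
  rw [inner_P G h5 hA (by omega), inner_P G h5 hA (by omega), min_eq_right (by omega), min_eq_right (by omega), sub_self]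

omit h5 hA [Finite G] in
theorem P_sub (k : ℕ) : P G Ω k - P G Ω 0 = ∑ j ∈ Finset.range k, (P G Ω (j + 1) - P G Ω j) :=
  (Finset.sum_range_sub (fun j => P G Ω j) k).symm

/-- the constituents of `P k - 1` -/
theorem inner_sub [Fintype G] {k : ℕ} (hk : 2 * k ≤ Fintype.card Ω) {θ : G → ℂ} (hθ : IsIrrCharacter G θ) :
    classInner (P G Ω k - P G Ω 0) θ = 0 ∨ (classInner (P G Ω k - P G Ω 0) θ = 1 ∧ θ ≠ (fun _ => 1) ∧
      ∃ j, θ = P G Ω (j + 1) - P G Ω j) := by
  classical
  rw [P_sub, classInner_sum_left]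
  by_cases h : ∃ j ∈ Finset.range k, P G Ω (j + 1) - P G Ω j = θ
  · right
    obtain ⟨j, hj, rfl⟩ := h
    have hj' := Finset.mem_range.1 hj
    refine ⟨?_, ?_, j, rfl⟩
    · rw [Finset.sum_eq_single j]
      · exact classInner_irr_self hθ
      · intro i hi hij
        have hi' := Finset.mem_range.1 hi
        rcases lt_or_gt_of_ne hij with h1 | h1
        · rw [← classInner_conj_symm, inner_two G h5 hA h1 (by omega), map_zero]
        · exact inner_two G h5 hA h1 (by omega)
      · intro h
        exact absurd hj h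
    · intro e
      have h1 := classInner_irr_self hθ
      rw [e] at h1
      have h2 := inner_two_one G h5 hA (j := j) (by omega)
      rw [e] at h2
      rw [h2] at h1
      exact zero_ne_one h1
  · left
    push Not at h
    refine Finset.sum_eq_zero fun j hj => ?_
    have hj' := Finset.mem_range.1 hj
    exact classInner_irr_ne (irr_two G h5 hA (by omega)) hθ (h j hj)

end Orb

end Cfsg.Agent.H87.CY
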