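import Cfsg.Agent.H87.CY.Two
import Cfsg.Agent.H770.CY.Defs
import Cfsg.Agent.StandardComponent.AltAut

/-!
# S4829, alternating groups: witnesses on `A` from the `k`-subset characters (helper87)
-/

set_option autoImplicit false
set_option linter.unusedSectionVars false

namespace Cfsg.Agent.H87.CY

open Cfsg Cfsg.Agent.Characters.Core MulAction Equiv Cfsg.Agent.H464.PermIrr Cfsg.Agent.H770.CY
open scoped Pointwise

universe u

theorem fixedBy_pow {G X : Type*} [Group G] [Finite G] [MulAction G X] {k : ℕ} (hk : Nat.Coprime k (Nat.card G))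
    (g : G) : fixedBy X (g ^ k) = fixedBy X g := by
  obtain ⟨m, hm⟩ := exists_pow_eq_self_of_coprime (x := g) (Nat.Coprime.coprime_dvd_right (orderOf_dvd_natCard g) hk)
  have key : ∀ (h : G) (j : ℕ) (x : X), h • x = x → h ^ j • x = x := by
    intro h j x hx
    induction j with
    | zero => rw [pow_zero, one_smul]
    | succ j ih => rw [pow_succ, mul_smul, hx, ih]
  ext x
  rw [mem_fixedBy, mem_fixedBy]
  constructor
  · intro h
    have h1 := key (g ^ k) m x h
    rwa [hm] at h1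
  · exact key g k x

theorem cyc_P (p : ℕ) {G : Type u} [Group G] [Finite G] {Ω : Type*} [MulAction G Ω] [DecidableEq Ω] (j : ℕ) :
    Cyc p (P G Ω j) := by
  intro k hk _ g
  rw [P, pc, pc, fixedBy_pow hk]

theorem cyc_sub (p : ℕ) {G : Type u} [Group G] {f g : G → ℂ} (hf : Cyc p f) (hg : Cyc p g) : Cyc p (f - g) := by
  intro k hk hk1 x
  rw [Pi.sub_apply, Pi.sub_apply, hf k hk hk1, hg k hk hk1]

theorem P_comp {n : ℕ} {G : Type*} [Group G] (φ : G →* Perm (Fin n)) (k : ℕ) :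
    @P G _ (Fin n) (MulAction.compHom (Fin n) φ) _ k = fun g => P (Perm (Fin n)) (Fin n) k (φ g) := by
  rfl

/-- counting fixed subsets -/
theorem count {n p k : ℕ} [hp : Fact p.Prime] (Q : Subgroup (Perm (Fin n))) (hQ : IsPGroup p Q)
    (x : Perm (Fin n)) (hx : ∀ q ∈ Q, x * q = q * x)
    (hfix : ∀ Y : Set.powersetCard (Fin n) k, (∀ q ∈ Q, q • Y = Y) → x • Y = Y) :
    Nat.card (fixedBy (Set.powersetCard (Fin n) k) x) ≡ n.choose k [MOD p] := by
  let T : SubMulAction Q (Set.powersetCard (Fin n) k) :=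
    { carrier := fixedBy (Set.powersetCard (Fin n) k) x
      smul_mem' := by
        intro q Y hY
        rw [mem_fixedBy] at hY ⊢
        change x • ((q : Perm (Fin n)) • Y) = (q : Perm (Fin n)) • Y
        rw [← mul_smul, hx q q.2, mul_smul, hY] }
  have h1 := hQ.card_modEq_card_fixedPoints (Set.powersetCard (Fin n) k)
  have h2 := hQ.card_modEq_card_fixedPoints T
  rw [Set.powersetCard.card, Nat.card_eq_fintype_card, Fintype.card_fin] at h1
  have h3 : Nat.card (fixedPoints Q T) = Nat.card (fixedPoints Q (Set.powersetCard (Fin n) k)) := by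
    refine Nat.card_congr
      { toFun := fun Y => ⟨Y.1.1, fun q => congrArg Subtype.val (Y.2 q)⟩
        invFun := fun Y => ⟨⟨Y.1, ?_⟩, fun q => Subtype.ext (Y.2 q)⟩
        left_inv := fun Y => rfl
        right_inv := fun Y => rfl }
    change x • Y.1 = Y.1
    exact hfix Y.1 fun q hq => Y.2 ⟨q, hq⟩
  have h4 : Nat.card T = Nat.card (fixedBy (Set.powersetCard (Fin n) k) x) := rfl
  rw [← h4]
  exact (h2.trans (by rw [h3])).trans h1.symm

theorem mem_local {p : ℕ} {M : Ideal AlgInt} (hM : IsPModular p M) {a b c d : ℕ} (h1 : a ≡ b [MOD p])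
    (h2 : c ≡ d [MOD p]) : MemLocalIdeal M (((a : ℂ) - c) - ((b : ℂ) - d)) := by
  have h3 : ((p : ℤ)) ∣ ((a : ℤ) - c) - (b - d) := by
    have h4 := (Nat.modEq_iff_dvd.1 h1)
    have h5 := (Nat.modEq_iff_dvd.1 h2)
    have e : ((a : ℤ) - c) - (b - d) = (d - c) - (b - a) := by ring
    rw [e]
    exact dvd_sub h5 h4
  obtain ⟨m, hm⟩ := h3
  refine ⟨(p : AlgInt) * (m : AlgInt), 1, ?_, ?_, ?_⟩
  · exact Ideal.mul_mem_right _ _ hM.2.2
  · intro h
    exact hM.2.1.ne_top ((Ideal.eq_top_iff_one M).2 h)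
  · have h6 : (((a : ℤ) - c - (b - d) : ℤ) : ℂ) = ((p : ℤ) * m : ℤ) := by rw [hm]
    push_cast at h6
    push_cast
    rw [div_one, ← h6]

section Phi

variable {X : Type u} [Group X] {n : ℕ} (e : X ≃* alternatingGroup (Fin n)) {A : Subgroup (MulAut X)}
  (hA : ∀ s : X, MulAut.conj s ∈ A)

theorem exists_phi (hn : 7 ≤ n) : ∃ φ : A →* Perm (Fin n), (∀ s : X, φ ⟨MulAut.conj s, hA s⟩ = (e s : Perm (Fin n))) ∧
    ∀ (a : A) (x : X), (e ((a : MulAut X) x) : Perm (Fin n)) = φ a * (e x : Perm (Fin n)) * (φ a)⁻¹ := by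
  obtain ⟨ψ, hψ⟩ := Cfsg.Agent.StandardComponent.AltAut.exists_autHom n hn
  have h1 : ∀ (a : MulAut X) (x : X), (e (a x) : Perm (Fin n)) =
      ψ (MulAut.congr e a) * (e x : Perm (Fin n)) * (ψ (MulAut.congr e a))⁻¹ := by
    intro a x
    rw [← hψ]
    have h2 : (MulAut.congr e a) (e x) = e (a x) := by
      change e (a (e.symm (e x))) = e (a x)
      rw [MulEquiv.symm_apply_apply]
    rw [h2]
  refine ⟨ψ.comp ((MulAut.congr e).toMonoidHom.comp A.subtype), fun s => ?_, fun a x => h1 a x⟩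
  obtain ⟨m, rfl⟩ : ∃ m, n = m + 2 := ⟨n - 2, by omega⟩
  apply Cfsg.Agent.StandardComponent.AltAut.conj_unique (m := m) (by omega)
  intro y
  obtain ⟨x, rfl⟩ := e.surjective y
  have h2 := h1 (MulAut.conj s) x
  rw [MulAut.conj_apply, map_mul, map_mul, map_inv] at h2
  exact h2.symm

end Phi

end Cfsg.Agent.H87.CY
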